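import Cfsg.Agent.S0065
import Mathlib

/-!
Central elements of chief factors of 2-groups.
-/

set_option autoImplicit false

namespace Cfsg.Agent.H33.SelfCent

/-- In a finite 2-group `M`, if `E < K` are normalised by `M` and lie in it, then some element of
`K` outside `E` is central in `M` modulo `E`. -/
theorem exists_central_mod {S : Type*} [Group S] [Finite S] (hS : IsPGroup 2 S) {M E K : Subgroup S}
    (hKM : K ≤ M) (hEK : E ≤ K) (hne : E ≠ K)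
    (hE : ∀ m ∈ M, ∀ e ∈ E, m * e * m⁻¹ ∈ E) (hK : ∀ m ∈ M, ∀ k ∈ K, m * k * m⁻¹ ∈ K) :
    ∃ c ∈ K, c ∉ E ∧ ∀ m ∈ M, m * c * m⁻¹ * c⁻¹ ∈ E := by
  haveI : Fact (Nat.Prime 2) := ⟨Nat.prime_two⟩
  haveI hEn : (E.subgroupOf M).Normal := ⟨fun e he m => hE m.1 m.2 e.1 he⟩
  haveI hKn : (K.subgroupOf M).Normal := ⟨fun e he m => hK m.1 m.2 e.1 he⟩
  set π := QuotientGroup.mk' (E.subgroupOf M) with hπ
  haveI : Group.IsNilpotent M := (hS.to_subgroup M).isNilpotent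
  haveI : Group.IsNilpotent (M ⧸ E.subgroupOf M) :=
    ((hS.to_subgroup M).to_quotient _).isNilpotent
  haveI : ((K.subgroupOf M).map π).Normal := Subgroup.Normal.map hKn π (QuotientGroup.mk'_surjective _)
  have hb : (K.subgroupOf M).map π ≠ ⊥ := by
    intro h
    apply hne
    refine le_antisymm hEK fun k hk => ?_
    have hm : π ⟨k, hKM hk⟩ ∈ (⊥ : Subgroup (M ⧸ E.subgroupOf M)) := h ▸ ⟨⟨k, hKM hk⟩, hk, rfl⟩
    have hm1 : π ⟨k, hKM hk⟩ = 1 := Subgroup.mem_bot.1 hm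
    exact (QuotientGroup.eq_one_iff (⟨k, hKM hk⟩ : M)).1 hm1
  have h := Cfsg.Agent.S0065.result _ hb
  obtain ⟨x, hx1⟩ := Subgroup.ne_bot_iff_exists_ne_one.1 h
  obtain ⟨x, hx⟩ := x
  replace hx1 : x ≠ 1 := fun e => hx1 (Subtype.ext e)
  obtain ⟨c, hc, rfl⟩ := hx.1
  refine ⟨c.1, hc, fun hcE => hx1 ((QuotientGroup.eq_one_iff c).2 hcE), fun m hm => ?_⟩
  have hcen := Subgroup.mem_center_iff.1 hx.2 (π ⟨m, hm⟩)
  have h1 : π (⟨m, hm⟩ * c * ⟨m, hm⟩⁻¹ * c⁻¹) = 1 := by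
    rw [map_mul, map_mul, map_mul, map_inv, map_inv, hcen, mul_inv_cancel_right, mul_inv_cancel]
  have hmem : (⟨m, hm⟩ : M) * c * (⟨m, hm⟩ : M)⁻¹ * c⁻¹ ∈ E.subgroupOf M :=
    (QuotientGroup.eq_one_iff _).1 h1
  exact hmem

end Cfsg.Agent.H33.SelfCent
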