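import Cfsg.Agent.H33.SelfCent.Basic
import Cfsg.Prelude.Def_Transfer
import Mathlib

/-!
A self-centralising elementary abelian group of order eight inside `Q₈ * Q₈`.
-/

set_option autoImplicit false
set_option maxRecDepth 20000
set_option synthInstance.maxSize 4096

namespace Cfsg.Agent.H33.SelfCent

/-- The quaternion group. -/
abbrev Q8 := QuaternionGroup 2

/-- The class modulo the centre. -/
def cl : Q8 → Fin 4
  | .a i => if i.val % 2 = 0 then 0 else 1
  | .xa i => if i.val % 2 = 0 then 2 else 3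

/-- The central involution of `Q₈`. -/
def zq : Q8 := .a 2

/-- A three-cycle of the three classes. -/
def rot : Fin 4 → Fin 4 := ![0, 2, 3, 1]

/-- Pairs in the kernel. -/
def IsK (p : Q8 × Q8) : Prop := p = 1 ∨ p = (zq, zq)

/-- Pairs mapping into the centre. -/
def IsZ (p : Q8 × Q8) : Prop := cl p.1 = 0 ∧ cl p.2 = 0

instance (p : Q8 × Q8) : Decidable (IsK p) := inferInstanceAs (Decidable (_ ∨ _))
instance (p : Q8 × Q8) : Decidable (IsZ p) := inferInstanceAs (Decidable (_ ∧ _))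

/-- The graph of a map of classes. -/
def InG (r : Fin 4 → Fin 4) (p : Q8 × Q8) : Prop := cl p.2 = r (cl p.1)

instance (r : Fin 4 → Fin 4) (p : Q8 × Q8) : Decidable (InG r p) := inferInstanceAs (Decidable (_ = _))

/-- All the finite facts about one of the two subgroups. -/
structure Good (r : Fin 4 → Fin 4) : Prop where
  one : InG r 1
  mul : ∀ p q, InG r p → InG r q → InG r (p * q)
  inv : ∀ p, InG r p → InG r p⁻¹
  comm : ∀ p, InG r p → ∀ q, InG r q → IsK (p * q * p⁻¹ * q⁻¹)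
  sq : ∀ p, InG r p → IsK (p * p)
  norm : ∀ p q, InG r q → InG r (p * q * p⁻¹)
  self : ∀ p, (∀ q, InG r q → IsK (p * q * p⁻¹ * q⁻¹)) → InG r p
  central : ∀ p, IsZ p → InG r p
  count : Nat.card {p // InG r p} = 16

/-- The facts about a complementary subgroup generated by `f₁` and `f₂`. -/
structure Compl (r : Fin 4 → Fin 4) (f₁ f₂ : Q8 × Q8) : Prop where
  cover : ∀ p, ∃ i j : Bool, InG r (p * ((if i then f₁ else 1) * (if j then f₂ else 1))⁻¹)
  inner : ∀ e₁, IsZ e₁ → ∀ e₂, IsZ e₂ → ∃ e, InG r e ∧ IsK (e * f₁ * e⁻¹ * (e₁ * f₁)⁻¹) ∧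
    IsK (e * f₂ * e⁻¹ * (e₂ * f₂)⁻¹)
  sq₁ : IsK (f₁ * f₁)
  sq₂ : IsK (f₂ * f₂)
  sq₁₂ : IsK (f₁ * f₂ * (f₁ * f₂))
  outer : ∀ e₁, InG r e₁ → ∀ e₂, InG r e₂ → IsK (e₁ * f₁ * (e₁ * f₁)) → IsK (e₂ * f₂ * (e₂ * f₂)) →
    IsK (e₁ * f₁ * (e₂ * f₂) * (e₁ * f₁ * (e₂ * f₂))) → ¬ (IsZ e₁ ∧ IsZ e₂) → ∀ i j : Bool,
      IsZ ((if i then e₁ * f₁ else 1) * (if j then e₂ * f₂ else 1) *
        ((if i then f₁ else 1) * (if j then f₂ else 1))⁻¹) → i = false ∧ j = false

theorem good_id : Good id where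
  one := by decide
  mul := by decide
  inv := by decide
  comm := by decide
  sq := by decide
  norm := by decide
  self := by decide
  central := by decide
  count := by rw [Nat.card_eq_fintype_card]; decide

theorem good_rot : Good rot where
  one := by decide
  mul := by decide
  inv := by decide
  comm := by decide
  sq := by decide
  norm := by decide
  self := by decide
  central := by decide
  count := by rw [Nat.card_eq_fintype_card]; decide

/-- Generators of the graph of `rot`. -/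
def fRot₁ : Q8 × Q8 := (.a 1, .xa 0)
/-- Generators of the graph of `rot`. -/
def fRot₂ : Q8 × Q8 := (.xa 0, .xa 1)
/-- Generators of the diagonal. -/
def fId₁ : Q8 × Q8 := (.a 1, .a 1)
/-- Generators of the diagonal. -/
def fId₂ : Q8 × Q8 := (.xa 0, .xa 0)

theorem compl_id : Compl id fRot₁ fRot₂ where
  cover := by decide
  inner := by decide
  sq₁ := by decide
  sq₂ := by decide
  sq₁₂ := by decide
  outer := by decide

theorem compl_rot : Compl rot fId₁ fId₂ where
  cover := by decide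
  inner := by decide
  sq₁ := by decide
  sq₂ := by decide
  sq₁₂ := by decide
  outer := by decide

theorem isZ_of_inG : ∀ p, InG id p → InG rot p → IsZ p := by decide

theorem isZ_of_central : ∀ p, (∀ q, IsK (p * q * p⁻¹ * q⁻¹)) → IsZ p := by decide

theorem central_of_isZ : ∀ p, IsZ p → ∀ q, IsK (p * q * p⁻¹ * q⁻¹) := by decide

theorem isZ_mul_isK : ∀ p q, IsZ p → IsK (p⁻¹ * q) → IsZ q := by decide

theorem involution_cases : ∀ p : Q8 × Q8, p * p = 1 → p = 1 ∨ p.1 = 1 ∨ p.2 = 1 ∨ p = (zq, zq) := by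
  decide

variable {S : Type*} [Group S] {ψ : Q8 × Q8 →* S}

/-- The image of a graph. -/
def graph (ψ : Q8 × Q8 →* S) {r : Fin 4 → Fin 4} (hr : Good r) : Subgroup S :=
  ({ carrier := {p | InG r p}
     one_mem' := hr.one
     mul_mem' := fun {p q} hp hq => hr.mul p q hp hq
     inv_mem' := fun {p} hp => hr.inv p hp } : Subgroup (Q8 × Q8)).map ψ

theorem isK_iff (hker : ∀ p, ψ p = 1 ↔ IsK p) {p q : Q8 × Q8} :
    IsK (p * q⁻¹) ↔ ψ p = ψ q := by
  rw [← hker, map_mul, map_inv, mul_inv_eq_one]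

theorem commute_iff' (hker : ∀ p, ψ p = 1 ↔ IsK p) {p q : Q8 × Q8} :
    IsK (p * q * p⁻¹ * q⁻¹) ↔ Commute (ψ p) (ψ q) := by
  rw [← hker, map_mul, map_mul, map_mul, map_inv, map_inv, mul_inv_eq_one, mul_inv_eq_iff_eq_mul]
  rfl

/-- Either the graph is self-centralising or some element normalising `Q` fixes nothing outside it. -/
theorem graph_dichotomy [Finite S] (hS : IsPGroup 2 S) (hker : ∀ p, ψ p = 1 ↔ IsK p)
    (hC : Subgroup.centralizer (ψ.range : Set S) ≤ ψ.range) {r : Fin 4 → Fin 4} (hr : Good r)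
    {f₁ f₂ : Q8 × Q8} (hf : Compl r f₁ f₂) :
    Subgroup.centralizer (graph ψ hr : Set S) = graph ψ hr ∨
      ∃ c ∈ Subgroup.normalizer (ψ.range : Set S), ∀ p, (∃ z, IsZ z ∧ c * ψ p * c⁻¹ * (ψ p)⁻¹ = ψ z) →
        InG r p := by
  classical
  set E := graph ψ hr with hEdef
  set C := Subgroup.centralizer (E : Set S) with hCdef
  have hEmem : ∀ p, InG r p → ψ p ∈ E := fun p hp => ⟨p, hp, rfl⟩
  have hEC : E ≤ C := by
    rintro _ ⟨p, hp, rfl⟩
    rw [hCdef, Subgroup.mem_centralizer_iff]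
    rintro _ ⟨q, hq, rfl⟩
    exact ((commute_iff' hker).1 (hr.comm q hq p hp)).eq
  by_cases hEq : E = C
  · exact Or.inl hEq.symm
  refine Or.inr ?_
  have hQN : ∀ m ∈ C ⊔ ψ.range, (∀ e ∈ E, m * e * m⁻¹ ∈ E) ∧ ∀ k ∈ C, m * k * m⁻¹ ∈ C := by
    have h1 : C ⊔ ψ.range ≤ Subgroup.normalizer (E : Set S) := by
      refine sup_le (fun k hk => ?_) ?_
      · rw [Subgroup.mem_normalizer_iff]
        intro e
        have hk' : k⁻¹ ∈ C := C.inv_mem hk
        rw [hCdef, Subgroup.mem_centralizer_iff] at hk hk'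
        constructor
        · intro he
          rwa [← hk e he, mul_inv_cancel_right]
        · intro he
          have h' : k⁻¹ * (k * e * k⁻¹) * k = k * e * k⁻¹ := by rw [← hk' _ he, inv_mul_cancel_right]
          have h'' : k⁻¹ * (k * e * k⁻¹) * k = e := by group
          rw [← h'', h']; exact he
      · rintro _ ⟨p, rfl⟩
        rw [Subgroup.mem_normalizer_iff]
        intro e
        constructor
        · rintro ⟨q, hq, rfl⟩
          exact ⟨p * q * p⁻¹, hr.norm p q hq, by rw [map_mul, map_mul, map_inv]⟩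
        · rintro ⟨q, hq, he⟩
          refine ⟨p⁻¹ * q * p⁻¹⁻¹, hr.norm _ q hq, ?_⟩
          simp only [map_mul, map_inv, inv_inv]
          rw [he]
          group
    intro m hm
    have hmn := Subgroup.mem_normalizer_iff.1 (h1 hm)
    refine ⟨fun e he => (hmn e).1 he, fun k hk => ?_⟩
    rw [hCdef, Subgroup.mem_centralizer_iff] at hk ⊢
    intro e he
    have he' : m⁻¹ * e * m ∈ E := by
      rw [hmn]; simpa [mul_assoc] using he
    calc e * (m * k * m⁻¹) = m * (m⁻¹ * e * m * k) * m⁻¹ := by group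
      _ = m * (k * (m⁻¹ * e * m)) * m⁻¹ := by rw [hk _ he']
      _ = m * k * m⁻¹ * e := by group
  obtain ⟨c, hcC, hcE, hc⟩ := exists_central_mod hS (M := C ⊔ ψ.range) le_sup_left hEC hEq
    (fun m hm => (hQN m hm).1) (fun m hm => (hQN m hm).2)
  have hcc : ∀ p, InG r p → Commute c (ψ p) := fun p hp =>
    (Subgroup.mem_centralizer_iff.1 hcC _ (hEmem p hp)).symm
  -- the images of the elements of the complement
  have himg : ∀ f : Q8 × Q8, ∃ e, InG r e ∧ c * ψ f * c⁻¹ = ψ (e * f) := fun f => by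
    obtain ⟨e, he, hef⟩ := E.inv_mem (hc (ψ f) (Subgroup.mem_sup_right ⟨f, rfl⟩))
    refine ⟨e, he, ?_⟩
    rw [map_mul, hef]; group
  have hcN : c ∈ Subgroup.normalizer (ψ.range : Set S) := by
    rw [Subgroup.mem_normalizer_iff]
    have h1 : ∀ x ∈ ψ.range, c * x * c⁻¹ ∈ ψ.range := by
      rintro _ ⟨f, rfl⟩
      obtain ⟨e, -, he⟩ := himg f
      exact ⟨e * f, he.symm⟩
    intro x
    refine ⟨h1 x, fun hx => ?_⟩
    have hle : ψ.range.map (MulAut.conj c).toMonoidHom ≤ ψ.range := by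
      rintro _ ⟨y, hy, rfl⟩; exact h1 y hy
    have heq := Subgroup.eq_of_le_of_card_ge hle
      (by rw [Subgroup.card_map_of_injective (MulAut.conj c).injective])
    rw [← heq] at hx
    obtain ⟨y, hy, hyx⟩ := hx
    simp only [MulEquiv.coe_toMonoidHom, MulAut.conj_apply, mul_left_inj, mul_right_inj] at hyx
    rwa [← hyx]
  obtain ⟨e₁, he₁, h₁⟩ := himg f₁
  obtain ⟨e₂, he₂, h₂⟩ := himg f₂
  by_cases hz : IsZ e₁ ∧ IsZ e₂
  · exfalso
    obtain ⟨e, he, k₁, k₂⟩ := hf.inner e₁ hz.1 e₂ hz.2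
    have hcent : (ψ e)⁻¹ * c ∈ Subgroup.centralizer (ψ.range : Set S) := by
      have hgen : ∀ f e', IsK (e * f * e⁻¹ * (e' * f)⁻¹) → c * ψ f * c⁻¹ = ψ (e' * f) →
          Commute ((ψ e)⁻¹ * c) (ψ f) := fun f e' k h => by
        have k' : ψ (e * f * e⁻¹) = ψ (e' * f) := (isK_iff hker).1 k
        rw [← h, map_mul, map_mul, map_inv] at k'
        show _ = _
        calc (ψ e)⁻¹ * c * ψ f = (ψ e)⁻¹ * (c * ψ f * c⁻¹) * c := by group
          _ = (ψ e)⁻¹ * (ψ e * ψ f * (ψ e)⁻¹) * c := by rw [k']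
          _ = ψ f * ((ψ e)⁻¹ * c) := by group
      rw [Subgroup.mem_centralizer_iff]
      rintro _ ⟨p, rfl⟩
      obtain ⟨i, j, hp⟩ := hf.cover p
      have hp1 : Commute ((ψ e)⁻¹ * c) (ψ (p * ((if i then f₁ else 1) * (if j then f₂ else 1))⁻¹)) :=
        Commute.mul_left (((commute_iff' hker).1 (hr.comm _ he _ hp)).inv_left) (hcc _ hp)
      have hp2 : Commute ((ψ e)⁻¹ * c) (ψ ((if i then f₁ else 1) * (if j then f₂ else 1))) := by
        rw [map_mul]
        refine Commute.mul_right ?_ ?_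
        · cases i
          · simp
          · simpa using hgen f₁ e₁ k₁ h₁
        · cases j
          · simp
          · simpa using hgen f₂ e₂ k₂ h₂
      have := hp1.mul_right hp2
      rw [← map_mul, inv_mul_cancel_right] at this
      exact this.eq.symm
    obtain ⟨w, hw⟩ := hC hcent
    apply hcE
    have hwz : IsZ w := isZ_of_central w fun q => (commute_iff' hker).2 (by
      rw [hw]; exact (Subgroup.mem_centralizer_iff.1 hcent (ψ q) ⟨q, rfl⟩).symm)
    have : c = ψ e * ψ w := by rw [hw]; group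
    rw [this]
    exact E.mul_mem (hEmem e he) (hEmem w (hr.central w hwz))
  refine ⟨c, hcN, fun p ⟨z, hz', hp⟩ => ?_⟩
  obtain ⟨i, j, hpe⟩ := hf.cover p
  obtain ⟨e, he⟩ : ∃ e, e = p * ((if i then f₁ else 1) * (if j then f₂ else 1))⁻¹ := ⟨_, rfl⟩
  rw [← he] at hpe
  have hp' : p = e * ((if i then f₁ else 1) * (if j then f₂ else 1)) := by
    rw [he, inv_mul_cancel_right]
  set F := (if i then f₁ else 1) * (if j then f₂ else 1) with hFdef
  set F' := (if i then e₁ * f₁ else 1) * (if j then e₂ * f₂ else 1) with hFdef'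
  have hcF : c * ψ F * c⁻¹ = ψ F' := by
    have e0 : c * ψ 1 * c⁻¹ = ψ 1 := by simp
    rw [hFdef, hFdef', map_mul, map_mul]
    calc c * (ψ (if i then f₁ else 1) * ψ (if j then f₂ else 1)) * c⁻¹
        = (c * ψ (if i then f₁ else 1) * c⁻¹) * (c * ψ (if j then f₂ else 1) * c⁻¹) := by group
      _ = _ := by cases i <;> cases j <;> simp [e0, h₁, h₂]
  have hsq : ∀ f e', IsK (f * f) → c * ψ f * c⁻¹ = ψ e' → IsK (e' * e') := fun f e' k h => by
    rw [← hker, map_mul, ← h]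
    have k' := (hker _).2 k
    rw [map_mul] at k'
    calc c * ψ f * c⁻¹ * (c * ψ f * c⁻¹) = c * (ψ f * ψ f) * c⁻¹ := by group
      _ = 1 := by rw [k']; group
  have h12 : c * ψ (f₁ * f₂) * c⁻¹ = ψ (e₁ * f₁ * (e₂ * f₂)) := by
    rw [map_mul, map_mul, ← h₁, ← h₂]; group
  have hd : ψ (e * (F' * F⁻¹) * e⁻¹) = ψ z := by
    have hpψ : ψ p = ψ e * ψ F := by rw [hp', map_mul]
    rw [← hp, hpψ, map_mul, map_mul, map_mul, map_inv, map_inv, ← hcF]
    have hce := (hcc e hpe).eq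
    calc ψ e * (c * ψ F * c⁻¹ * (ψ F)⁻¹) * (ψ e)⁻¹
        = (ψ e * c) * ψ F * c⁻¹ * (ψ F)⁻¹ * (ψ e)⁻¹ := by group
      _ = _ := by rw [← hce]; group
  have hzc : IsZ (F' * F⁻¹) := by
    have hzz : IsZ (e * (F' * F⁻¹) * e⁻¹) := by
      refine isZ_mul_isK z _ hz' ?_
      rw [← hker, map_mul, map_inv, hd, inv_mul_cancel]
    refine isZ_mul_isK _ _ hzz ?_
    have hcomm := (commute_iff' hker).1 (central_of_isZ _ hzz e)
    rw [← hker, map_mul, map_inv]
    rw [map_mul, map_mul, map_inv] at hcomm ⊢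
    have e3 := hcomm.eq
    calc (ψ e * ψ (F' * F⁻¹) * (ψ e)⁻¹)⁻¹ * ψ (F' * F⁻¹)
        = (ψ e * ψ (F' * F⁻¹) * (ψ e)⁻¹)⁻¹ * ((ψ e)⁻¹ * (ψ e * ψ (F' * F⁻¹) * (ψ e)⁻¹ * ψ e)) := by group
      _ = 1 := by rw [e3]; group
  obtain ⟨rfl, rfl⟩ := hf.outer e₁ he₁ e₂ he₂ (hsq _ _ hf.sq₁ h₁) (hsq _ _ hf.sq₂ h₂)
    (hsq _ _ hf.sq₁₂ h12) hz i j hzc
  rw [hp']
  simpa [hFdef] using hpe

/-- A self-centralising elementary abelian group of order eight. -/
theorem quat_exists [Finite S] (hS : IsPGroup 2 S) (hker : ∀ p, ψ p = 1 ↔ IsK p)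
    (hC : Subgroup.centralizer (ψ.range : Set S) ≤ ψ.range) :
    ∃ A : Subgroup S, Cfsg.IsElementaryAbelian 2 A ∧ Nat.card A = 8 ∧
      Subgroup.centralizer (A : Set S) = A := by
  classical
  have mk : ∀ {r : Fin 4 → Fin 4} (hr : Good r),
      Subgroup.centralizer (graph ψ hr : Set S) = graph ψ hr →
      ∃ A : Subgroup S, Cfsg.IsElementaryAbelian 2 A ∧ Nat.card A = 8 ∧
        Subgroup.centralizer (A : Set S) = A := by
    intro r hr h
    refine ⟨_, ⟨⟨⟨fun x y => Subtype.ext ?_⟩⟩, ?_⟩, ?_, h⟩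
    · obtain ⟨p, hp, e1⟩ := x.2
      obtain ⟨q, hq, e2⟩ := y.2
      show (x : S) * y = y * x
      rw [← e1, ← e2]
      exact ((commute_iff' hker).1 (hr.comm p hp q hq)).eq
    · rintro _ ⟨p, hp, rfl⟩
      rw [pow_two, ← map_mul, hker]; exact hr.sq p hp
    · set K : Subgroup (Q8 × Q8) :=
        { carrier := {p | InG r p}
          one_mem' := hr.one
          mul_mem' := fun {p q} hp hq => hr.mul p q hp hq
          inv_mem' := fun {p} hp => hr.inv p hp }
      have hk : Nat.card K = 16 := hr.count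
      have h2 : Nat.card (ψ.subgroupMap K).ker = 2 := by
        have hzK : InG r (zq, zq) := hr.central _ (by decide)
        rw [Nat.card_eq_two_iff]
        refine ⟨1, ⟨⟨(zq, zq), hzK⟩, Subtype.ext ((hker _).2 (Or.inr rfl))⟩,
          fun e => (show ¬ ((1 : Q8 × Q8) = (zq, zq)) by decide) (congrArg (fun x : (ψ.subgroupMap K).ker => ((x : K) : Q8 × Q8)) e), ?_⟩
        refine Set.eq_univ_of_forall fun x => ?_
        rcases (hker ((x : K) : Q8 × Q8)).1 (congrArg Subtype.val x.2) with e | e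
        · exact Or.inl (Subtype.ext (Subtype.ext e))
        · exact Or.inr (Set.mem_singleton_iff.2 (Subtype.ext (Subtype.ext e)))
      have h3 := (ψ.subgroupMap K).ker.card_mul_index
      rw [Subgroup.index_ker, MonoidHom.range_eq_top.2 (ψ.subgroupMap_surjective K), h2, hk,
        Subgroup.card_top] at h3
      show Nat.card (K.map ψ) = 8
      omega
  rcases graph_dichotomy hS hker hC good_id compl_id with h | ⟨c, hc, hfix⟩
  · exact mk good_id h
  rcases graph_dichotomy hS hker hC good_rot compl_rot with h | ⟨d, hd, hfix'⟩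
  · exact mk good_rot h
  exfalso
  -- the centre of `Q`
  set Zs : Subgroup S := ψ.range ⊓ Subgroup.centralizer (ψ.range : Set S) with hZs
  have hZmem : ∀ x ∈ Zs, ∃ z, IsZ z ∧ x = ψ z := by
    rintro x ⟨⟨w, rfl⟩, hx⟩
    exact ⟨w, isZ_of_central w fun q => (commute_iff' hker).2
      ((Subgroup.mem_centralizer_iff.1 hx (ψ q) ⟨q, rfl⟩).symm), rfl⟩
  have hne : Zs ≠ ψ.range := by
    intro h
    obtain ⟨z, hz, e⟩ := hZmem (ψ fId₁) (h ▸ ⟨fId₁, rfl⟩)
    have := isZ_mul_isK z fId₁ hz (by rw [← hker, map_mul, map_inv, e, inv_mul_cancel])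
    exact absurd this (by decide)
  set N := Subgroup.normalizer (ψ.range : Set S)
  have hconj : ∀ m ∈ N, ∀ x ∈ ψ.range, m * x * m⁻¹ ∈ ψ.range := fun m hm x hx =>
    (Subgroup.mem_normalizer_iff.1 hm x).1 hx
  obtain ⟨q, hq, hqz, hqc⟩ := exists_central_mod hS (M := N) Subgroup.le_normalizer inf_le_left hne
    (fun m hm x hx => ⟨hconj m hm x hx.1, Subgroup.mem_centralizer_iff.2 fun y hy => by
      have hy' : m⁻¹ * y * m ∈ ψ.range := by
        rw [Subgroup.mem_normalizer_iff.1 hm]; simpa [mul_assoc] using hy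
      calc y * (m * x * m⁻¹) = m * (m⁻¹ * y * m * x) * m⁻¹ := by group
        _ = m * (x * (m⁻¹ * y * m)) * m⁻¹ := by rw [Subgroup.mem_centralizer_iff.1 hx.2 _ hy']
        _ = m * x * m⁻¹ * y := by group⟩)
    hconj
  obtain ⟨p, rfl⟩ := hq
  have h1 := hfix p (hZmem _ (hqc c hc))
  have h2 := hfix' p (hZmem _ (hqc d hd))
  refine hqz ⟨⟨p, rfl⟩, Subgroup.mem_centralizer_iff.2 ?_⟩
  rintro _ ⟨y, rfl⟩
  exact (((commute_iff' hker).1 (central_of_isZ p (isZ_of_inG p h1 h2) y)).symm).eq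

end Cfsg.Agent.H33.SelfCent
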