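import Cfsg.Prelude.Def_CaseTheorems
import Cfsg.Statements.S1234
import Mathlib

/-!
A self-centralising elementary abelian group of order eight inside `2² ≀ 2`.
-/

set_option autoImplicit false

namespace Cfsg.Agent.H33.SelfCent

theorem wreath_exists {S : Type*} [Group S] [Finite S] (Q E : Subgroup S) (hEQ : E ≤ Q)
    (hE : Cfsg.IsElementaryAbelian 2 E) (hE16 : Nat.card E = 16) (hQ32 : Nat.card Q = 32)
    (s : S) (hsQ : s ∈ Q) (hsE : s ∉ E) (hs : orderOf s = 2)
    (hfix : Nat.card ↥(E ⊓ Subgroup.centralizer ({s} : Set S)) = 4)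
    (hC : Subgroup.centralizer (((Subgroup.center Q).map Q.subtype : Subgroup S) : Set S) = Q) :
    ∃ A : Subgroup S, Cfsg.IsElementaryAbelian 2 A ∧ Nat.card A = 8 ∧
      Subgroup.centralizer (A : Set S) = A := by
  haveI : Fact (Nat.Prime 2) := ⟨Nat.prime_two⟩
  have hsq : ∀ e ∈ E, e * e = 1 := fun e he => by
    have := hE.2 e he
    rwa [pow_two] at this
  have hcomm : ∀ e ∈ E, ∀ f ∈ E, e * f = f * e := fun e he f hf => by
    haveI := hE.1
    exact congrArg Subtype.val (mul_comm' (⟨e, he⟩ : E) ⟨f, hf⟩)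
  have hss : s * s = 1 := by
    have := pow_orderOf_eq_one s
    rwa [hs, pow_two] at this
  -- every element of `Q` is `e` or `e s`
  have hdec : ∀ q ∈ Q, q ∈ E ∨ q * s ∈ E := by
    intro q hq
    by_cases h : q ∈ E
    · exact Or.inl h
    · refine Or.inr ?_
      have hidx : (E.subgroupOf Q).index = 2 := by
        have h1 := (E.subgroupOf Q).card_mul_index
        rw [Nat.card_congr (Subgroup.subgroupOfEquivOfLe hEQ).toEquiv, hE16, hQ32] at h1
        omega
      have h2 := (Subgroup.mul_mem_iff_of_index_two hidx (a := ⟨q, hq⟩) (b := ⟨s, hsQ⟩)).2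
        ⟨fun h' => absurd h' h, fun h' => absurd h' hsE⟩
      exact h2
  set Z : Subgroup S := E ⊓ Subgroup.centralizer ({s} : Set S) with hZ
  have hZs : ∀ z ∈ Z, z * s = s * z := fun z hz => Subgroup.mem_centralizer_singleton_iff.1 hz.2
  -- the centre of `Q` lies in `Z`
  have hcen : ((Subgroup.center Q).map Q.subtype : Subgroup S) ≤ Z := by
    rintro _ ⟨z, hz, rfl⟩
    have hc : ∀ q ∈ Q, q * (z : S) = (z : S) * q := fun q hq =>
      congrArg Subtype.val (Subgroup.mem_center_iff.1 hz ⟨q, hq⟩)
    refine ⟨?_, Subgroup.mem_centralizer_singleton_iff.2 (hc s hsQ).symm⟩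
    rcases hdec z z.2 with h | h
    · exact h
    · exfalso
      have hall : E ⊓ Subgroup.centralizer ({s} : Set S) = E := inf_eq_left.2 fun e he =>
        Subgroup.mem_centralizer_singleton_iff.2 (by
          have h1 := hcomm e he _ h
          rw [← mul_assoc, hc e (hEQ he), mul_assoc, mul_assoc] at h1
          exact mul_left_cancel h1)
      rw [hZ, hall, hE16] at hfix
      omega
  let A : Subgroup S :=
    { carrier := {x | x ∈ Z ∨ x * s ∈ Z}
      one_mem' := Or.inl Z.one_mem
      mul_mem' := by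
        rintro x y (hx | hx) (hy | hy)
        · exact Or.inl (Z.mul_mem hx hy)
        · exact Or.inr (by rw [mul_assoc]; exact Z.mul_mem hx hy)
        · refine Or.inr ?_
          have e : x * y * s = x * s * y := by rw [mul_assoc, hZs y hy, ← mul_assoc]
          rw [e]; exact Z.mul_mem hx hy
        · refine Or.inl ?_
          have e : x * y = x * s * (y * s) := by
            have := hZs (y * s) hy
            rw [mul_assoc, ← this, mul_assoc y s s, hss, mul_one]
          rw [e]; exact Z.mul_mem hx hy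
      inv_mem' := by
        rintro x (hx | hx)
        · exact Or.inl (Z.inv_mem hx)
        · refine Or.inr ?_
          have h := Z.inv_mem hx
          have h2 := hZs (x * s)⁻¹ h
          rw [_root_.mul_inv_rev, inv_eq_of_mul_eq_one_left hss] at h h2
          have e : x⁻¹ * s = s * x⁻¹ := by
            have h3 := congrArg (fun w => s * w) h2
            simp only [← mul_assoc, hss, one_mul] at h3
            exact h3
          rw [e]; exact h }
  have hmem : ∀ x, x ∈ A ↔ x ∈ Z ∨ x * s ∈ Z := fun _ => Iff.rfl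
  have hsA : s ∈ A := Or.inr (by rw [hss]; exact Z.one_mem)
  have hZA : Z ≤ A := fun x hx => Or.inl hx
  have hAQ : A ≤ Q := by
    rintro x (hx | hx)
    · exact hEQ hx.1
    · have := Q.mul_mem (hEQ hx.1) hsQ
      rwa [mul_assoc, hss, mul_one] at this
  have hdecA : ∀ x ∈ A, ∃ z ∈ Z, x = z ∨ x = z * s := by
    rintro x (hx | hx)
    · exact ⟨x, hx, Or.inl rfl⟩
    · exact ⟨x * s, hx, Or.inr (by rw [mul_assoc, hss, mul_one])⟩
  have hab : ∀ x ∈ A, ∀ y ∈ A, Commute x y := by
    intro x hx y hy
    obtain ⟨u, hu, rfl | rfl⟩ := hdecA x hx <;> obtain ⟨v, hv, rfl | rfl⟩ := hdecA y hy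
    · exact hcomm _ hu.1 _ hv.1
    · exact Commute.mul_right (hcomm _ hu.1 _ hv.1) (hZs _ hu)
    · exact (show Commute _ _ from hcomm _ hu.1 _ hv.1).mul_left (Commute.symm (hZs _ hv))
    · exact ((show Commute _ _ from hcomm _ hu.1 _ hv.1).mul_right (hZs _ hu)).mul_left
        ((Commute.symm (hZs _ hv)).mul_right (Commute.refl s))
  refine ⟨A, ⟨⟨⟨fun x y => Subtype.ext (hab _ x.2 _ y.2)⟩⟩, ?_⟩, ?_, ?_⟩
  · intro x hx
    show x ^ 2 = 1
    obtain ⟨u, hu, h | h⟩ := hdecA x hx
    · rw [h, pow_two]; exact hsq u hu.1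
    · rw [h, (show Commute u s from hZs u hu).mul_pow, pow_two, pow_two, hsq u hu.1, hss, one_mul]
  · have hidx : (Z.subgroupOf A).index = 2 := by
      rw [Subgroup.index_eq_two_iff]
      refine ⟨⟨s, hsA⟩, fun b => ?_⟩
      rcases (hmem b).1 b.2 with h | h
      · refine Or.inr ⟨h, fun h' => hsE ?_⟩
        have := Z.mul_mem (Z.inv_mem h) (show (b : S) * s ∈ Z from h')
        rw [inv_mul_cancel_left] at this
        exact this.1
      · refine Or.inl ⟨h, fun h' => hsE ?_⟩
        have := Z.mul_mem (Z.inv_mem (show (b : S) ∈ Z from h')) h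
        rw [inv_mul_cancel_left] at this
        exact this.1
    have h1 := (Z.subgroupOf A).card_mul_index
    rw [Nat.card_congr (Subgroup.subgroupOfEquivOfLe hZA).toEquiv, hfix, hidx] at h1
    omega
  · refine le_antisymm (fun x hx => ?_) fun x hx => Subgroup.mem_centralizer_iff.2 fun y hy =>
      (hab y hy x hx).eq
    have hxc := Subgroup.mem_centralizer_iff.1 hx
    have hxQ : x ∈ Q := by
      rw [← hC]
      exact Subgroup.mem_centralizer_iff.2 fun z hz => hxc z (hZA (hcen hz))
    have hxs : s * x = x * s := hxc s hsA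
    rcases hdec x hxQ with h | h
    · exact Or.inl ⟨h, Subgroup.mem_centralizer_singleton_iff.2 hxs.symm⟩
    · exact Or.inr ⟨h, Subgroup.mem_centralizer_singleton_iff.2 (by rw [← mul_assoc, hxs])⟩

end Cfsg.Agent.H33.SelfCent
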